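import Mathlib.NumberTheory.Cyclotomic.Gal
import Mathlib.FieldTheory.IsAlgClosed.Classification
import Mathlib.RingTheory.Polynomial.Cyclotomic.Roots
import Mathlib.RingTheory.RootsOfUnity.Complex
import Mathlib.Analysis.Complex.Polynomial.Basic

/-!
# Field automorphisms of the complex numbers acting on roots of unity
-/

set_option autoImplicit false

namespace Cfsg.Agent.PConj

theorem exists_ringEquiv_pow {n j : ℕ} [NeZero n] (hj : j.Coprime n) :
    ∃ σ : ℂ ≃+* ℂ, ∀ z : ℂ, z ^ n = 1 → σ z = z ^ j := by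
  haveI : NeZero (n : ℚ) := ⟨Nat.cast_ne_zero.2 (NeZero.ne n)⟩
  let K := CyclotomicField n ℚ
  haveI : IsCyclotomicExtension {n} ℚ K := CyclotomicField.isCyclotomicExtension n ℚ
  haveI : Algebra.IsAlgebraic ℚ K := by
    haveI := IsCyclotomicExtension.finiteDimensional {n} ℚ K
    exact Algebra.IsAlgebraic.of_finite ℚ K
  let ι : K →ₐ[ℚ] ℂ := IsAlgClosed.lift
  letI : Algebra K ℂ := ι.toRingHom.toAlgebra
  have hirr : Irreducible (Polynomial.cyclotomic n ℚ) :=
    Polynomial.cyclotomic.irreducible_rat (NeZero.pos n)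
  let τ : K ≃ₐ[ℚ] K := (IsCyclotomicExtension.autEquivPow K hirr).symm (ZMod.unitOfCoprime j hj)
  have hζ : IsPrimitiveRoot (IsCyclotomicExtension.zeta n ℚ K) n :=
    IsCyclotomicExtension.zeta_spec n ℚ K
  have hτ : ∀ y : K, y ^ n = 1 → τ y = y ^ j := by
    intro y hy
    obtain ⟨i, -, rfl⟩ := hζ.eq_pow_of_pow_eq_one hy
    have h1 : (hζ.autToPow ℚ τ) = ZMod.unitOfCoprime j hj :=
      (IsCyclotomicExtension.autEquivPow K hirr).apply_symm_apply _
    have h2 := hζ.autToPow_spec ℚ τ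
    rw [h1, ZMod.coe_unitOfCoprime, ZMod.val_natCast, ← pow_eq_pow_mod j hζ.pow_eq_one] at h2
    rw [map_pow, ← h2, ← pow_mul, ← pow_mul, mul_comm]
  obtain ⟨s, hs⟩ := exists_isTranscendenceBasis K ℂ
  let A := Algebra.adjoin K (Set.range (Subtype.val : s → ℂ))
  let ev := hs.1.aevalEquiv
  let e : A ≃+* A :=
    ev.symm.toRingEquiv.trans ((MvPolynomial.mapEquiv s τ.toRingEquiv).trans ev.toRingEquiv)
  haveI : IsAlgClosure A ℂ := IsAlgClosed.isAlgClosure_of_transcendence_basis _ hs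
  let σ := IsAlgClosure.equivOfEquiv ℂ ℂ e
  refine ⟨σ, fun z hz => ?_⟩
  have hιζ : IsPrimitiveRoot (ι (IsCyclotomicExtension.zeta n ℚ K)) n :=
    hζ.map_of_injective ι.injective
  obtain ⟨i, -, rfl⟩ := hιζ.eq_pow_of_pow_eq_one hz
  rw [← map_pow ι, ← map_pow ι]
  set y := IsCyclotomicExtension.zeta n ℚ K ^ i with hy
  have hy1 : τ y = y ^ j := hτ y (by rw [hy, ← pow_mul, mul_comm, pow_mul, hζ.pow_eq_one, one_pow])
  have h1 : σ (algebraMap A ℂ (algebraMap K A y)) = algebraMap A ℂ (e (algebraMap K A y)) :=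
    IsAlgClosure.equivOfEquiv_algebraMap ℂ ℂ e _
  have h2 : e (algebraMap K A y) = algebraMap K A (τ y) := by
    have h3 : ev.symm (algebraMap K A y) = MvPolynomial.C y := ev.symm.commutes y
    show ev (MvPolynomial.mapEquiv s τ.toRingEquiv (ev.symm (algebraMap K A y))) = _
    rw [h3, MvPolynomial.mapEquiv_apply, MvPolynomial.map_C]
    exact ev.commutes _
  rw [h2, hy1] at h1
  exact h1

end Cfsg.Agent.PConj
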