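import Cfsg.Agent.PConj.Auto
import Cfsg.Agent.Brauer.WeakOrth
import Cfsg.Agent.OddChar.Twist
import Cfsg.Agent.BlkChar.PModular
import Cfsg.Agent.Char.Integrality
import Cfsg.Agent.Block.LocalRing
import Mathlib.GroupTheory.Sylow
import Mathlib.Algebra.Group.Subgroup.Finite

/-!
# Degrees of p-conjugate characters
-/

set_option autoImplicit false
set_option linter.style.haveILetI false

open scoped ComplexConjugate

namespace Cfsg.Agent.PConj

open Cfsg Cfsg.Agent.Char

variable {G : Type*} [Group G] [Finite G]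

/-- The character twists `g ↦ χ (g ^ j)` with `j ≡ 1` modulo `R`. -/
def twists (R : ℕ) (χ : IrrCharacter G) : Set (IrrCharacter G) :=
  {ψ | ∃ j : ℕ, j.Coprime (Nat.card G) ∧ j ≡ 1 [MOD R] ∧ ∀ g, (ψ : G → ℂ) g = (χ : G → ℂ) (g ^ j)}

theorem twists_eq (R : ℕ) (Q : ℕ) (hQR : Nat.card G = Q * R) (χ : IrrCharacter G) :
    twists R χ = {ψ : IrrCharacter G | ∃ σ : ℂ ≃+* ℂ,
      σ (Complex.exp (2 * Real.pi * Complex.I / (R : ℕ))) =
        Complex.exp (2 * Real.pi * Complex.I / (R : ℕ)) ∧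
      (ψ : G → ℂ) = fun g => σ ((χ : G → ℂ) g)} := by
  haveI : NeZero (Nat.card G) := ⟨Nat.card_pos.ne'⟩
  haveI : NeZero R := ⟨fun h => NeZero.ne (Nat.card G) (by rw [hQR, h, mul_zero])⟩
  have hR : IsPrimitiveRoot (GalAvg.zeta R) R := GalAvg.zeta_spec R
  have hRn : GalAvg.zeta R ^ Nat.card G = 1 := by
    rw [hQR, mul_comm, pow_mul, hR.pow_eq_one, one_pow]
  have hσval : ∀ (σ : ℂ ≃+* ℂ) (j : ℕ), (∀ z : ℂ, z ^ Nat.card G = 1 → σ z = z ^ j) →
      ∀ g, σ ((χ : G → ℂ) g) = (χ : G → ℂ) (g ^ j) := by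
    intro σ j hσ g
    obtain ⟨m, ρ, -, he⟩ := χ.2
    rw [← he]
    obtain ⟨ε, hε, hpow⟩ := exists_character_eq_sum_roots ρ g
    conv_lhs => rw [← pow_one g, hpow]
    rw [hpow, map_sum]
    refine Finset.sum_congr rfl fun i _ => ?_
    rw [pow_one, hσ]
    obtain ⟨k, hk⟩ := orderOf_dvd_natCard g
    rw [hk, pow_mul, hε i, one_pow]
  ext ψ
  constructor
  · rintro ⟨j, hj, hjR, hψ⟩
    obtain ⟨σ, hσ⟩ := exists_ringEquiv_pow hj
    refine ⟨σ, ?_, funext fun g => by rw [hψ, hσval σ j hσ]⟩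
    show σ (GalAvg.zeta R) = GalAvg.zeta R
    rw [hσ _ hRn, pow_eq_pow_mod j hR.pow_eq_one, hjR, ← pow_eq_pow_mod 1 hR.pow_eq_one, pow_one]
  · rintro ⟨σ, hσR, hψ⟩
    have hn : IsPrimitiveRoot (GalAvg.zeta (Nat.card G)) (Nat.card G) := GalAvg.zeta_spec _
    have hn' := hn.map_of_injective (f := σ.toRingHom) σ.injective
    obtain ⟨j, -, hj⟩ := hn.eq_pow_of_pow_eq_one hn'.pow_eq_one
    have hjc : j.Coprime (Nat.card G) :=
      (hn.pow_iff_coprime (NeZero.pos _) j).1 (hj.symm ▸ hn')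
    have hσ : ∀ z : ℂ, z ^ Nat.card G = 1 → σ z = z ^ j := by
      intro z hz
      obtain ⟨i, -, rfl⟩ := hn.eq_pow_of_pow_eq_one hz
      rw [map_pow, ← pow_mul, mul_comm, pow_mul]
      exact congrArg (· ^ i) hj.symm
    refine ⟨j, hjc, ?_, fun g => by rw [hψ]; exact hσval σ j hσ g⟩
    have h1 : GalAvg.zeta R ^ j = GalAvg.zeta R ^ 1 := by
      rw [pow_one, ← hσ _ hRn]; exact hσR
    rw [pow_eq_pow_mod j hR.pow_eq_one, pow_eq_pow_mod 1 hR.pow_eq_one] at h1
    exact hR.pow_inj (Nat.mod_lt _ (NeZero.pos R)) (Nat.mod_lt _ (NeZero.pos R)) h1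

/-- Exponents for a unit modulo `Q`. -/
theorem exists_exponent {Q R : ℕ} [NeZero Q] [NeZero R] (hcop : Q.Coprime R) :
    ∃ x y : ℕ, Q * R ∣ x * Q ∧ Q * R ∣ y * R ∧ x ≡ 1 [MOD Q] ∧ y ≡ 1 [MOD R] := by
  obtain ⟨x, hx1, hx2⟩ := Nat.chineseRemainder hcop 1 0
  obtain ⟨y, hy1, hy2⟩ := Nat.chineseRemainder hcop 0 1
  refine ⟨x, y, ?_, ?_, hx1, hy2⟩
  · rw [mul_comm Q R]
    exact Nat.mul_dvd_mul_right ((Nat.modEq_zero_iff_dvd).1 hx2) Q
  · exact Nat.mul_dvd_mul_right ((Nat.modEq_zero_iff_dvd).1 hy1) R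

theorem sum_pow_eq {m : ℕ} [NeZero m] {z : ℂ} (hz : z ^ m = 1) :
    ∑ k ∈ Finset.range m, z ^ k = if z = 1 then (m : ℂ) else 0 := by
  split_ifs with h
  · simp [h]
  · rw [geom_sum_eq h, hz]; simp

theorem exists_sum_units_pow {p b : ℕ} (hp : p.Prime) [NeZero (p ^ (b + 1))] {z : ℂ}
    (hz : z ^ p ^ (b + 1) = 1) :
    ∃ t : ℤ, ∑ u : (ZMod (p ^ (b + 1)))ˣ, z ^ (u : ZMod (p ^ (b + 1))).val =
      ((p ^ b : ℕ) : ℂ) * t := by
  classical
  set Q := p ^ (b + 1) with hQ
  have hQb : Q = p * p ^ b := by rw [hQ, pow_succ']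
  have hunits : ∑ u : (ZMod Q)ˣ, z ^ (u : ZMod Q).val =
      ∑ k ∈ (Finset.range Q).filter (fun k => ¬ p ∣ k), z ^ k := by
    refine Finset.sum_bij (fun u _ => (u : ZMod Q).val) (fun u _ => ?_) (fun u _ v _ h => ?_)
      (fun k hk => ?_) (fun u _ => rfl)
    · refine Finset.mem_filter.2 ⟨Finset.mem_range.2 (ZMod.val_lt _), fun hd => ?_⟩
      exact hp.ne_one (Nat.eq_one_of_dvd_coprimes
        (ZMod.val_coe_unit_coprime u) hd (dvd_pow_self p b.succ_ne_zero))
    · exact Units.ext (ZMod.val_injective Q h)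
    · obtain ⟨hk1, hk2⟩ := Finset.mem_filter.1 hk
      refine ⟨ZMod.unitOfCoprime k ((hp.coprime_iff_not_dvd.2 hk2).symm.pow_right _),
        Finset.mem_univ _, ?_⟩
      rw [ZMod.coe_unitOfCoprime, ZMod.val_natCast, Nat.mod_eq_of_lt (Finset.mem_range.1 hk1)]
  have hmult : ∑ k ∈ (Finset.range Q).filter (fun k => p ∣ k), z ^ k =
      ∑ i ∈ Finset.range (p ^ b), (z ^ p) ^ i := by
    refine (Finset.sum_bij (fun i _ => p * i) (fun i hi => ?_)
      (fun i _ j _ h => Nat.eq_of_mul_eq_mul_left hp.pos h) (fun k hk => ?_)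
      (fun i _ => (pow_mul z p i).symm)).symm
    · refine Finset.mem_filter.2 ⟨Finset.mem_range.2 ?_, dvd_mul_right p i⟩
      rw [hQb]
      exact Nat.mul_lt_mul_of_pos_left (Finset.mem_range.1 hi) hp.pos
    · obtain ⟨hk1, i, rfl⟩ := Finset.mem_filter.1 hk
      refine ⟨i, Finset.mem_range.2 ?_, rfl⟩
      rw [Finset.mem_range, hQb] at hk1
      exact Nat.lt_of_mul_lt_mul_left hk1
  have hsplit := Finset.sum_filter_add_sum_filter_not (Finset.range Q) (fun k => p ∣ k)
    (fun k => z ^ k)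
  rw [hmult, ← hunits, sum_pow_eq hz] at hsplit
  haveI : NeZero (p ^ b) := ⟨pow_ne_zero _ hp.ne_zero⟩
  rw [sum_pow_eq (by rw [← pow_mul, ← hQb]; exact hz)] at hsplit
  refine ⟨(if z = 1 then (p : ℤ) else 0) - (if z ^ p = 1 then 1 else 0), ?_⟩
  have hc : (Q : ℂ) = (p : ℂ) * ((p ^ b : ℕ) : ℂ) := by rw [← Nat.cast_mul, ← hQb]
  split_ifs at hsplit ⊢ <;> push_cast at * <;>
    first | linear_combination hsplit | linear_combination hsplit + hc

theorem isIntegral_div_of_coprime {x : ℂ} (hx : IsIntegral ℤ x) {P c : ℕ} (hP : P ≠ 0)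
    (hcop : c.Coprime P) (h : IsIntegral ℤ ((c : ℂ) * x / P)) : IsIntegral ℤ (x / P) := by
  obtain ⟨u, v, huv⟩ := (Nat.isCoprime_iff_coprime.2 hcop : IsCoprime (c : ℤ) (P : ℤ))
  have hP' : (P : ℂ) ≠ 0 := Nat.cast_ne_zero.2 hP
  have e : x / P = (u : ℂ) * ((c : ℂ) * x / P) + (v : ℂ) * x := by
    have : ((u : ℂ) * c + v * P) = 1 := by exact_mod_cast congrArg (Int.cast : ℤ → ℂ) huv
    field_simp
    linear_combination (-x) * this
  rw [e]
  exact (isIntegral_algebraMap.mul h).add (isIntegral_algebraMap.mul hx)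

theorem isIntegral_conj {x : ℂ} (hx : IsIntegral ℤ x) : IsIntegral ℤ (conj x) :=
  hx.map (starRingEnd ℂ).toIntAlgHom

theorem degree_bounds {p : ℕ} (hp : p.Prime) (χ : IrrCharacter G) {d r : ℕ}
    (hd : (χ : G → ℂ) 1 = d)
    (hr : Nat.card (twists (Nat.card G / p ^ (Nat.card G).factorization p) χ) = r) :
    (r * d).factorization p ≤ (Nat.card G).factorization p ∧
      (p ^ (Nat.card G).factorization p ∣ r * d → p ^ (Nat.card G).factorization p ∣ d) := by
  classical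
  haveI := Fact.mk hp
  letI := Fintype.ofFinite G
  set a := (Nat.card G).factorization p with ha
  set R := Nat.card G / p ^ a with hRdef
  have hn : Nat.card G = p ^ a * R := (Nat.ordProj_mul_ordCompl_eq_self _ p).symm
  have hcop : (p ^ a).Coprime R :=
    (Nat.coprime_ordCompl hp Nat.card_pos.ne').pow_left a
  haveI : NeZero (p ^ a) := ⟨pow_ne_zero _ hp.ne_zero⟩
  haveI : NeZero R := ⟨by intro h; rw [h, mul_zero] at hn; exact Nat.card_pos.ne' hn⟩
  have hd0 : d ≠ 0 := by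
    intro h; apply irr_one_ne_zero χ.2; rw [hd, h, Nat.cast_zero]
  obtain ⟨x, y, hxQ, hyR, hx1, hy1⟩ := exists_exponent hcop
  rw [← hn] at hxQ hyR
  -- exponents
  have hmodn : ∀ {i j : ℕ}, i ≡ j [MOD p ^ a] → i ≡ j [MOD R] → i ≡ j [MOD Nat.card G] :=
    fun {i j} h1 h2 => hn ▸ (Nat.modEq_and_modEq_iff_modEq_mul hcop).1 ⟨h1, h2⟩
  let e : (ZMod (p ^ a))ˣ → ℕ := fun u => x * (u : ZMod (p ^ a)).val + y
  have hyQ : y ≡ 0 [MOD p ^ a] := Nat.modEq_zero_iff_dvd.2
    (Nat.dvd_of_mul_dvd_mul_right (NeZero.pos R) (hn ▸ hyR))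
  have hxR : x ≡ 0 [MOD R] := Nat.modEq_zero_iff_dvd.2
    (Nat.dvd_of_mul_dvd_mul_right (NeZero.pos (p ^ a)) (show R * p ^ a ∣ x * p ^ a by
      rw [mul_comm R, ← hn]; exact hxQ))
  have heQ : ∀ u, e u ≡ (u : ZMod (p ^ a)).val [MOD p ^ a] := fun u => by
    simpa using (hx1.mul_right (u : ZMod (p ^ a)).val).add hyQ
  have heR : ∀ u, e u ≡ 1 [MOD R] := fun u => by
    simpa using (hxR.mul_right (u : ZMod (p ^ a)).val).add hy1
  have hec : ∀ u, (e u).Coprime (Nat.card G) := fun u => by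
    rw [hn]
    refine Nat.Coprime.mul_right ?_ ?_
    · show Nat.gcd _ _ = 1
      rw [(heQ u).gcd_eq]; exact ZMod.val_coe_unit_coprime u
    · show Nat.gcd _ _ = 1
      rw [(heR u).gcd_eq]; exact Nat.gcd_one_left R
  let f : (ZMod (p ^ a))ˣ → twists R χ := fun u =>
    ⟨⟨fun g => (χ : G → ℂ) (g ^ e u), OddChar.irr_twist χ.2 (hec u)⟩,
      e u, hec u, heR u, fun g => rfl⟩
  have hf : Function.Surjective f := by
    rintro ⟨ψ, j, hj, hjR, hψ⟩
    refine ⟨ZMod.unitOfCoprime j (hj.coprime_dvd_right ⟨R, hn⟩), Subtype.ext (Subtype.ext ?_)⟩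
    funext g
    rw [hψ g]
    refine congrArg _ (pow_eq_pow_iff_modEq.2 ((hmodn ?_ ((heR _).trans hjR.symm)).of_dvd
      (orderOf_dvd_natCard g)))
    refine (heQ _).trans ?_
    rw [ZMod.coe_unitOfCoprime, ZMod.val_natCast]
    exact Nat.mod_modEq j _
  have hfmul : ∀ u w g, (f (u * w) : G → ℂ) g = (f u : G → ℂ) (g ^ e w) := by
    intro u w g
    show (χ : G → ℂ) (g ^ e (u * w)) = (χ : G → ℂ) ((g ^ e w) ^ e u)
    rw [← pow_mul]
    refine congrArg _ (pow_eq_pow_iff_modEq.2 ((hmodn ?_ ?_).of_dvd (orderOf_dvd_natCard g)))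
    · refine (heQ _).trans (Nat.ModEq.trans ?_ ((heQ w).mul (heQ u)).symm)
      rw [Units.val_mul, ZMod.val_mul, mul_comm]
      exact Nat.mod_modEq _ _
    · exact (heR _).trans (by simpa using ((heR w).mul (heR u)).symm)
  -- fibres of equal size
  set c := (Finset.univ.filter fun u => f u = f 1).card with hc
  have hfib : ∀ ψ : twists R χ, (Finset.univ.filter fun u => f u = ψ).card = c := by
    intro ψ
    obtain ⟨w, rfl⟩ := hf ψ
    refine (Finset.card_equiv (Equiv.mulRight w) fun u => ?_).symm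
    simp only [Finset.mem_filter, Finset.mem_univ, true_and, Equiv.coe_mulRight]
    constructor
    · intro h
      refine Subtype.ext (Subtype.ext (funext fun g => ?_))
      rw [hfmul, h, ← hfmul, one_mul]
    · intro h
      refine Subtype.ext (Subtype.ext (funext fun g => ?_))
      have := fun g => (hfmul (u * w) w⁻¹ g).trans
        ((congrFun (congrArg (fun z : twists R χ => (z : G → ℂ)) h) (g ^ e w⁻¹)).trans
          (hfmul w w⁻¹ g).symm)
      simpa using this g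
  haveI : Fintype (twists R χ) := Fintype.ofFinite _
  have hcr : r * c = Nat.totient (p ^ a) := by
    rw [← ZMod.card_units_eq_totient, ← Finset.card_univ,
      Finset.card_eq_sum_card_fiberwise (f := f) (t := Finset.univ) (fun u _ => by simp)]
    simp only [hfib, Finset.sum_const, smul_eq_mul]
    rw [Finset.card_univ, ← Nat.card_eq_fintype_card, hr]
  have hr0 : r ≠ 0 := by
    intro h; rw [h, zero_mul] at hcr; exact (Nat.totient_pos.2 (NeZero.pos _)).ne' hcr.symm
  let T : G → ℂ := fun g => ∑ ψ : twists R χ, (ψ : G → ℂ) g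
  have hTsum : ∀ g, (c : ℂ) * T g = ∑ u, (χ : G → ℂ) (g ^ e u) := by
    intro g
    rw [← Finset.sum_fiberwise Finset.univ f (fun u => (χ : G → ℂ) (g ^ e u)), Finset.mul_sum]
    refine Finset.sum_congr rfl fun ψ _ => ?_
    rw [Finset.sum_congr rfl (g := fun _ => (ψ : G → ℂ) g) (fun u hu => by
      rw [← (Finset.mem_filter.1 hu).2]), Finset.sum_const, hfib, nsmul_eq_mul]
  have hTint : ∀ g, IsIntegral ℤ (T g) := fun g => IsIntegral.sum _ fun ψ _ =>
    isCharacter_isIntegral (isCharacter_of_irr ψ.1.2) g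
  have hTcl : IsClassFunction G T := fun g h =>
    Finset.sum_congr rfl fun ψ _ => irr_isClassFunction ψ.1.2 g h
  set s := r.factorization p with hs
  -- the orbit sum is divisible by p ^ s
  have hTdiv : ∀ g, IsIntegral ℤ (T g / ((p ^ s : ℕ) : ℂ)) := by
    intro g
    rcases Nat.eq_zero_or_pos s with h0 | hspos
    · simpa [h0] using hTint g
    obtain ⟨b, hb⟩ : ∃ b, a = b + 1 := by
      refine Nat.exists_eq_succ_of_ne_zero fun h0 => ?_
      rw [h0, pow_zero, Nat.totient_one] at hcr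
      rw [hs, Nat.eq_one_of_mul_eq_one_right hcr] at hspos
      simp at hspos
    have hphi : Nat.totient (p ^ a) = p ^ b * (p - 1) := by
      rw [hb, Nat.totient_prime_pow_succ hp]
    have hsb : s + c.factorization p = b := by
      have hc0 : c ≠ 0 := by
        intro h; rw [h, mul_zero] at hcr; exact (Nat.totient_pos.2 (NeZero.pos _)).ne' hcr.symm
      have h1 := congrArg (fun m => m.factorization p) (hcr.trans hphi)
      have hp1 : p - 1 ≠ 0 := by have := hp.two_le; omega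
      simp only [Nat.factorization_mul hr0 hc0,
        Nat.factorization_mul (pow_ne_zero _ hp.ne_zero) hp1, Finsupp.coe_add, Pi.add_apply,
        hp.factorization_pow, Finsupp.single_eq_same,
        Nat.factorization_eq_zero_of_not_dvd (fun h => by
          have := Nat.le_of_dvd (by omega) h; omega : ¬ p ∣ p - 1), add_zero] at h1
      exact h1
    set c' := c / p ^ c.factorization p with hc'
    have hcc : c = p ^ c.factorization p * c' := (Nat.ordProj_mul_ordCompl_eq_self _ p).symm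
    have hc0 : c ≠ 0 := by
      intro h; rw [h, mul_zero] at hcr; exact (Nat.totient_pos.2 (NeZero.pos _)).ne' hcr.symm
    have hcop' : c'.Coprime (p ^ s) :=
      ((Nat.coprime_ordCompl hp hc0).symm).pow_right s
    refine isIntegral_div_of_coprime (hTint g) (pow_ne_zero _ hp.ne_zero) hcop' ?_
    obtain ⟨m, ρ, -, he⟩ := χ.2
    obtain ⟨ε, hε, hpow⟩ := exists_character_eq_sum_roots ρ g
    have hεn : ∀ i, ε i ^ Nat.card G = 1 := fun i => by
      obtain ⟨k, hk⟩ := orderOf_dvd_natCard g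
      rw [hk, pow_mul, hε i, one_pow]
    have hzQ : ∀ i, (ε i ^ x) ^ p ^ a = 1 := fun i => by
      obtain ⟨k, hk⟩ := hxQ
      rw [← pow_mul, hk, pow_mul, hεn, one_pow]
    haveI : NeZero (p ^ (b + 1)) := ⟨pow_ne_zero _ hp.ne_zero⟩
    have hsumi : ∀ i, ∃ t : ℤ, ∑ u : (ZMod (p ^ a))ˣ, (ε i ^ x) ^ (u : ZMod (p ^ a)).val =
        ((p ^ b : ℕ) : ℂ) * t := by
      intro i
      have hzi := hzQ i
      clear_value a
      subst hb
      exact exists_sum_units_pow hp hzi
    choose t ht using hsumi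
    have hkey : ((p ^ c.factorization p : ℕ) : ℂ) * ((c' : ℂ) * T g) =
        ((p ^ b : ℕ) : ℂ) * ∑ i, ε i ^ y * t i := by
      rw [← mul_assoc, ← Nat.cast_mul, ← hcc, hTsum, Finset.mul_sum]
      simp only [← he, hpow]
      simp only [e, pow_add, pow_mul]
      rw [Finset.sum_comm]
      refine Finset.sum_congr rfl fun i _ => ?_
      rw [← Finset.sum_mul, ht]
      ring
    rw [← hsb, pow_add, Nat.cast_mul, mul_comm ((p ^ s : ℕ) : ℂ), mul_assoc] at hkey
    have h2 := mul_left_cancel₀ (Nat.cast_ne_zero.2 (pow_ne_zero _ hp.ne_zero)) hkey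
    rw [h2, mul_div_cancel_left₀ _ (Nat.cast_ne_zero.2 (pow_ne_zero _ hp.ne_zero))]
    exact IsIntegral.sum _ fun i _ => (IsIntegral.pow (IsIntegral.of_pow (Nat.card_pos (α := G))
      (by rw [hεn]; exact isIntegral_one)) y).mul isIntegral_algebraMap
  -- orthogonality
  have hcG : (Nat.card G : ℂ) ≠ 0 := card_ne_zero_complex
  have horth : ∑ g : G, (χ : G → ℂ) g * conj (T g) = (Nat.card G : ℂ) := by
    simp only [T, map_sum, Finset.mul_sum]
    rw [Finset.sum_comm]
    have h1 : ∀ ψ : twists R χ, ∑ g : G, (χ : G → ℂ) g * conj ((ψ : G → ℂ) g) =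
        if χ = (ψ : IrrCharacter G) then (Nat.card G : ℂ) else 0 := by
      intro ψ
      rw [sum_mul_conj_eq_card_mul_classInner, classInner_irrCharacter]
      split_ifs <;> simp
    rw [Finset.sum_congr rfl fun ψ _ => h1 ψ]
    have hmem : χ ∈ twists R χ := ⟨1, Nat.coprime_one_left _, Nat.ModEq.refl 1, fun g => by rw [pow_one]⟩
    rw [Finset.sum_eq_single (⟨χ, hmem⟩ : twists R χ) (fun ψ _ hne => if_neg fun h => hne
      (Subtype.ext h.symm)) (fun h => absurd (Finset.mem_univ _) h), if_pos rfl]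
  have hquot : IsIntegral ℤ ((Nat.card G : ℂ) / ((p ^ s * d : ℕ) : ℂ)) := by
    rw [← horth, Finset.sum_div,
      ← Finset.sum_fiberwise Finset.univ (ConjClasses.mk : G → ConjClasses G)]
    refine IsIntegral.sum _ fun C _ => ?_
    obtain ⟨g₀, rfl⟩ := ConjClasses.mk_surjective C
    rw [Finset.sum_congr rfl (g := fun _ => (χ : G → ℂ) g₀ * conj (T g₀) / ((p ^ s * d : ℕ) : ℂ))
      (fun g hg => by
        obtain ⟨h, hh⟩ := isConj_iff.1
          (ConjClasses.mk_eq_mk_iff_isConj.1 (Finset.mem_filter.1 hg).2.symm)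
        rw [← hh, irr_isClassFunction χ.2 g₀ h, hTcl g₀ h]),
      Finset.sum_const, nsmul_eq_mul]
    have hcard : ((Finset.univ.filter fun g => ConjClasses.mk g = ConjClasses.mk g₀).card : ℂ) =
        ((Subgroup.centralizer ({g₀} : Set G)).index : ℂ) := by
      rw [← card_isConj_eq_index]
      congr 2
      ext g
      simp only [Finset.mem_filter, Finset.mem_univ, true_and, ConjClasses.mk_eq_mk_iff_isConj]
      exact ⟨IsConj.symm, IsConj.symm⟩
    have h1 := irr_classSize_mul_div_isIntegral χ.2 g₀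
    have h2 : IsIntegral ℤ (conj (T g₀) / ((p ^ s : ℕ) : ℂ)) := by
      simpa [map_div₀] using isIntegral_conj (hTdiv g₀)
    convert h1.mul h2 using 1
    rw [hcard, hd]
    push_cast
    field_simp
  have hdvd : p ^ s * d ∣ Nat.card G := by
    obtain ⟨z, hz⟩ := GalAvg.int_of_isIntegral_div (k := (Nat.card G : ℤ)) (d := p ^ s * d)
      (by simpa using hquot)
    rw [div_eq_iff (Nat.cast_ne_zero.2 (mul_ne_zero (pow_ne_zero _ hp.ne_zero) hd0))] at hz
    have hz' : (Nat.card G : ℤ) = z * ((p ^ s * d : ℕ) : ℤ) := by exact_mod_cast hz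
    exact Int.natCast_dvd_natCast.1 ⟨z, by rw [hz', mul_comm]⟩
  have hpsd : p ^ s * d ≠ 0 := mul_ne_zero (pow_ne_zero _ hp.ne_zero) hd0
  have hfac : (p ^ s * d).factorization p = (r * d).factorization p := by
    rw [Nat.factorization_mul (pow_ne_zero _ hp.ne_zero) hd0, Nat.factorization_mul hr0 hd0]
    simp [hp.factorization_pow, hs]
  have hle : (r * d).factorization p ≤ a := by
    rw [← hfac, ha]
    exact (Nat.factorization_le_iff_dvd hpsd Nat.card_pos.ne').2 hdvd p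
  refine ⟨hle, fun hdiv => ?_⟩
  have heq : (p ^ s * d).factorization p = a :=
    le_antisymm (hfac ▸ hle) (hfac ▸ (hp.pow_dvd_iff_le_factorization (mul_ne_zero hr0 hd0)).1 hdiv)
  obtain ⟨m, hm⟩ := hdvd
  have hm0 : m ≠ 0 := by rintro rfl; rw [mul_zero] at hm; exact Nat.card_pos.ne' hm
  have hpm : ¬ p ∣ m := by
    intro h
    have h1 := congrArg (fun k => k.factorization p) hm
    simp only [Nat.factorization_mul hpsd hm0, Finsupp.coe_add, Pi.add_apply, heq, ← ha] at h1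
    have := hp.factorization_pos_of_dvd hm0 h
    omega
  obtain ⟨M, hM⟩ := BlkChar.exists_isPModular p hp
  haveI : M.IsPrime := hM.2.1.isPrime
  have hdeg : ∀ ψ : twists R χ, (ψ : G → ℂ) 1 = d := by
    intro ψ
    obtain ⟨j, -, -, hψ⟩ := ψ.2
    rw [hψ, one_pow, hd]
  have hcoef : ∀ g, blockCoeff (twists R χ) g = (d : ℂ) * conj (T g) / (Nat.card G : ℂ) := by
    intro g
    rw [blockCoeff, finsum_mem_eq_toFinset_sum,
      Finset.sum_subtype (twists R χ).toFinset (p := (· ∈ twists R χ)) (fun ψ => Set.mem_toFinset)]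
    simp only [T, map_sum, Finset.mul_sum, Finset.sum_div]
    refine Finset.sum_congr rfl fun ψ _ => ?_
    rw [show (ψ.1 : G → ℂ) 1 = (d : ℂ) from hdeg ψ]
    ring
  have hint : ∀ g, MemLocalRing M (blockCoeff (twists R χ) g) := by
    intro g
    have h2 : IsIntegral ℤ (conj (T g) / ((p ^ s : ℕ) : ℂ)) := by
      simpa [map_div₀] using isIntegral_conj (hTdiv g)
    refine ⟨⟨_, h2⟩, (m : AlgInt), fun h => hpm ((Block.natCast_mem_iff hM m).1 h), ?_⟩
    have hm' : (m : ℂ) ≠ 0 := Nat.cast_ne_zero.2 hm0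
    have hd' : (d : ℂ) ≠ 0 := Nat.cast_ne_zero.2 hd0
    rw [hcoef, hm]
    push_cast
    field_simp
  have hvan : ∀ g, p ∣ orderOf g → T g = 0 := by
    intro g hg
    have h := Brauer.blockCoeff_eq_zero_of_integral hM (twists R χ) hint hg
    rw [hcoef, div_eq_zero_iff] at h
    rcases h.resolve_right hcG |> mul_eq_zero.1 with h | h
    · exact absurd h (Nat.cast_ne_zero.2 hd0)
    · simpa using h
  obtain ⟨P⟩ := (inferInstance : Nonempty (Sylow p G))
  letI := Fintype.ofFinite (P : Subgroup G)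
  have hP : Nat.card (P : Subgroup G) = p ^ a := P.card_eq_multiplicity
  have hsum : ∑ z : (P : Subgroup G), T z = (r : ℂ) * d := by
    rw [Finset.sum_eq_single (1 : (P : Subgroup G))]
    · show ∑ ψ : twists R χ, (ψ : G → ℂ) ((1 : (P : Subgroup G)) : G) = _
      rw [OneMemClass.coe_one, Finset.sum_congr rfl fun ψ _ => hdeg ψ, Finset.sum_const,
        Finset.card_univ, ← Nat.card_eq_fintype_card, hr, nsmul_eq_mul]
    · intro z _ hz
      apply hvan
      obtain ⟨k, hk⟩ := IsPGroup.iff_orderOf.1 P.isPGroup' z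
      rw [Subgroup.orderOf_coe, hk]
      refine dvd_pow_self p fun h => hz ?_
      rwa [h, pow_zero, orderOf_eq_one_iff] at hk
    · intro h; exact absurd (Finset.mem_univ _) h
  obtain ⟨m₁, hm₁⟩ := classInner_generalized_int
    (isGeneralizedCharacter_of_isCharacter (isCharacter_restrict (isCharacter_of_irr χ.2) (P : Subgroup G)))
    (isGeneralizedCharacter_of_isCharacter (isCharacter_of_irr (trivialIrr (P : Subgroup G)).2))
  have hone : ∑ z : (P : Subgroup G), (χ : G → ℂ) z = ((p ^ a : ℕ) : ℂ) * m₁ := by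
    rw [← hm₁, classInner, ← mul_assoc, ← hP, mul_inv_cancel₀ card_ne_zero_complex, one_mul]
    simp [trivialIrr]
  have heach : ∀ ψ : twists R χ, ∑ z : (P : Subgroup G), (ψ : G → ℂ) z = ((p ^ a : ℕ) : ℂ) * m₁ := by
    intro ψ
    obtain ⟨j, hj, -, hψ⟩ := ψ.2
    rw [← hone]
    have hjP : (Nat.card (P : Subgroup G)).Coprime j :=
      (hj.coprime_dvd_right (Subgroup.card_subgroup_dvd_card _)).symm
    exact Fintype.sum_equiv (powCoprime hjP) _ _ fun z => by
      rw [hψ, powCoprime_apply, SubgroupClass.coe_pow]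
  rw [Finset.sum_comm, Finset.sum_congr rfl fun ψ _ => heach ψ, Finset.sum_const, Finset.card_univ,
    ← Nat.card_eq_fintype_card, hr, nsmul_eq_mul] at hsum
  have h2 := mul_left_cancel₀ (Nat.cast_ne_zero.2 hr0) hsum
  have h3 : ((p ^ a : ℕ) : ℤ) * m₁ = (d : ℤ) := by exact_mod_cast h2
  exact Int.natCast_dvd_natCast.1 ⟨m₁, h3.symm⟩

end Cfsg.Agent.PConj
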